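import Cfsg.Agent.KFacts.LFourThree.Case
import Cfsg.Agent.GH.Cov.F5L4Good
import Cfsg.Agent.H465.Wr

/-!
# `L_4(3)` does not contain `S_4 ≀ 2` (helper465, S1829)
-/

set_option autoImplicit false

namespace Cfsg.Agent.H465.LFour

open Matrix Cfsg.Agent.KFacts.LFourThree

/-! ### matrices of degree two over the field with three elements -/

theorem inv_aux' : ∀ a b c d : F3, (!![a, b; c, d] : M2) * !![a, b; c, d] = 1 →
    (((!![a, b; c, d] : M2) = 1 ∨ (!![a, b; c, d] : M2) = -1) ∧ a * d - b * c = 1) ∨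
      ((!![a, b; c, d] : M2) ≠ 1 ∧ (!![a, b; c, d] : M2) ≠ -1 ∧ a * d - b * c = -1) := by decide +kernel

theorem inv_cases {M : M2} (h : M * M = 1) :
    ((M = 1 ∨ M = -1) ∧ M.det = 1) ∨ (M ≠ 1 ∧ M ≠ -1 ∧ M.det = -1) := by
  rw [det_fin_two]
  have e := M.eta_fin_two
  rw [e] at h ⊢
  exact inv_aux' _ _ _ _ h

theorem comm_aux' : ∀ a b c d : F3, (!![a, b; c, d] : M2) * !![a, b; c, d] = 1 →
    (!![a, b; c, d] : M2) ≠ 1 → (!![a, b; c, d] : M2) ≠ -1 →
    ∀ x y z w : F3, (!![x, y; z, w] : M2) * !![a, b; c, d] = !![a, b; c, d] * !![x, y; z, w] →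
    x * w - y * z = 0 ∨ (x * w - y * z = 1 ∧ ((!![x, y; z, w] : M2) = 1 ∨ (!![x, y; z, w] : M2) = -1)) ∨
    (x * w - y * z = -1 ∧ ((!![x, y; z, w] : M2) = !![a, b; c, d] ∨ (!![x, y; z, w] : M2) = - !![a, b; c, d])) := by
  decide +kernel

theorem comm_cases {M X : M2} (h : M * M = 1) (h1 : M ≠ 1) (h2 : M ≠ -1) (hX : X * M = M * X) :
    X.det = 0 ∨ (X.det = 1 ∧ (X = 1 ∨ X = -1)) ∨ (X.det = -1 ∧ (X = M ∨ X = -M)) := by
  rw [det_fin_two]
  have e := M.eta_fin_two
  have e' := X.eta_fin_two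
  rw [e] at h h1 h2 hX ⊢
  rw [e'] at hX ⊢
  exact comm_aux' _ _ _ _ h h1 h2 _ _ _ _ hX

theorem perm_aux : ∀ e : Fin 4 → F3, (∀ i, e i = 1 ∨ e i = -1) → ∏ i, e i = 1 → e ≠ 1 → e ≠ -1 →
    ∃ σ : Equiv.Perm (Fin 4), ∀ i, e (σ i) = dZ i := by
  decide +kernel

/-- An involution of determinant one, different from `-1`, in standard form. -/
theorem exists_frame {A : SL4} (hA : A * A = 1) (hA1 : pr A ≠ 1) :
    ∃ Q : M4, Q.det ≠ 0 ∧ A.1 * Q = Q * diagonal dZ := by
  have h2 : (2 : F3) ≠ 0 := by decide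
  have hA' : A.1 * A.1 = 1 := by
    have := congrArg Subtype.val hA
    exact this
  obtain ⟨a, e, ha, he, hae⟩ := GH.Cov.F5L4Good.frameInv h2 A.1 hA'
  have hinv : a⁻¹ * a = 1 := nonsing_inv_mul _ (isUnit_iff_ne_zero.2 ha)
  have hinv' : a * a⁻¹ = 1 := mul_nonsing_inv _ (isUnit_iff_ne_zero.2 ha)
  have hprod : ∏ i, e i = 1 := by
    have h3 : A.1.det = 1 := A.2
    rw [hae, det_mul, det_mul, det_diagonal, mul_comm a.det, mul_assoc, ← det_mul, hinv', det_one, mul_one] at h3
    exact h3
  have he1 : e ≠ 1 := by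
    rintro rfl
    apply hA1
    rw [pr_eq_one_iff]
    left
    apply Subtype.ext
    change A.1 = 1
    rw [hae]
    change a * diagonal (fun _ => (1 : F3)) * a⁻¹ = 1
    rw [diagonal_one, mul_one, hinv']
  have he2 : e ≠ -1 := by
    rintro rfl
    apply hA1
    rw [pr_eq_one_iff]
    right
    apply Subtype.ext
    have h5 := m1_val 1
    rw [mul_one] at h5
    change A.1 = m1.1
    rw [h5, hae]
    change a * diagonal (fun _ => (-1 : F3)) * a⁻¹ = (2 : F3) • (1 : M4)
    have h6 : (diagonal (fun _ => (-1 : F3)) : M4) = (2 : F3) • (1 : M4) := by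
      ext i j
      by_cases hij : i = j
      · subst hij
        simp
        decide
      · simp [hij]
    rw [h6, mul_smul_comm, mul_one, smul_mul_assoc, hinv']
  obtain ⟨σ, hσ⟩ := perm_aux e he hprod he1 he2
  refine ⟨a.submatrix id σ, ?_, ?_⟩
  · rw [Matrix.det_permute' σ a]
    refine mul_ne_zero ?_ ha
    have := Int.units_eq_one_or (Equiv.Perm.sign σ)
    rcases this with h | h <;> rw [h] <;> decide
  · have h4 : A.1 * a = a * diagonal e := by
      rw [hae, mul_assoc, hinv, mul_one]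
    ext i j
    have h5 := congrFun (congrFun h4 i) (σ j)
    rw [mul_diagonal, hσ] at h5
    rw [mul_diagonal]
    exact h5

variable {A B g : SL4}

/-- **Key fact**: a noncyclic elementary abelian subgroup of order `8` of `SL_4(3)` containing `-1` is self-centralizing. -/
theorem cent_two (hA : A * A = 1) (hB : B * B = 1) (hAB : A * B = B * A) (hA1 : pr A ≠ 1) (hB1 : pr B ≠ 1)
    (hAB1 : pr A ≠ pr B) (hgA : g * A = A * g) (hgB : g * B = B * g) :
    pr g = 1 ∨ pr g = pr A ∨ pr g = pr B ∨ pr g = pr A * pr B := by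
  obtain ⟨Q, hQ, hAQ⟩ := exists_frame hA hA1
  have hinv : Q⁻¹ * Q = 1 := nonsing_inv_mul _ (isUnit_iff_ne_zero.2 hQ)
  have hinv' : Q * Q⁻¹ = 1 := mul_nonsing_inv _ (isUnit_iff_ne_zero.2 hQ)
  -- conjugation by `Q`
  set cj : SL4 → M4 := fun X => Q⁻¹ * X.1 * Q with hcj
  have cmul : ∀ X Y : SL4, cj (X * Y) = cj X * cj Y := by
    intro X Y
    change Q⁻¹ * (X.1 * Y.1) * Q = Q⁻¹ * X.1 * Q * (Q⁻¹ * Y.1 * Q)
    have : Q⁻¹ * X.1 * Q * (Q⁻¹ * Y.1 * Q) = Q⁻¹ * X.1 * (Q * Q⁻¹) * Y.1 * Q := by noncomm_ring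
    rw [this, hinv', mul_one]
    noncomm_ring
  have cinj : ∀ X Y : SL4, cj X = cj Y → X = Y := by
    intro X Y h
    apply Subtype.ext
    have h1 : Q * cj X * Q⁻¹ = Q * cj Y * Q⁻¹ := by rw [h]
    have h2 : ∀ Z : SL4, Q * cj Z * Q⁻¹ = Z.1 := by
      intro Z
      have : Q * (Q⁻¹ * Z.1 * Q) * Q⁻¹ = (Q * Q⁻¹) * Z.1 * (Q * Q⁻¹) := by noncomm_ring
      rw [hcj]
      change Q * (Q⁻¹ * Z.1 * Q) * Q⁻¹ = Z.1
      rw [this, hinv', one_mul, mul_one]
    rw [h2, h2] at h1
    exact h1
  have cone : cj 1 = 1 := by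
    change Q⁻¹ * 1 * Q = 1
    rw [mul_one, hinv]
  have cneg : ∀ X : SL4, cj (m1 * X) = (2 : F3) • cj X := by
    intro X
    change Q⁻¹ * (m1 * X).1 * Q = (2 : F3) • (Q⁻¹ * X.1 * Q)
    rw [m1_val, mul_smul_comm, smul_mul_assoc]
  have cdet : ∀ X : SL4, (cj X).det = 1 := by
    intro X
    change (Q⁻¹ * X.1 * Q).det = 1
    rw [det_mul, det_mul, X.2, mul_one, ← det_mul, hinv, det_one]
  have cA : cj A = diagonal dZ := by
    change Q⁻¹ * A.1 * Q = _
    rw [mul_assoc, hAQ, ← mul_assoc, hinv, one_mul]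
  have hprm : ∀ X : SL4, ∀ Y : SL4, cj X = cj Y ∨ cj X = -cj Y → pr X = pr Y := by
    intro X Y h
    rw [pr_eq_iff]
    rcases h with h | h
    · exact Or.inl (cinj _ _ h)
    · right
      apply cinj
      rw [cneg, h]
      ext i j
      change -(cj Y i j) = 2 * (cj Y i j)
      generalize cj Y i j = t
      revert t
      decide
  -- block forms
  have bB : cj B * diagonal dZ = diagonal dZ * cj B := by
    rw [← cA, ← cmul, ← cmul, hAB]
  have bg : cj g * diagonal dZ = diagonal dZ * cj g := by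
    rw [← cA, ← cmul, ← cmul, hgA]
  obtain ⟨M, N, eB⟩ : ∃ M N : M2, cj B = bd M N := ⟨_, _, bd_of_comm bB⟩
  obtain ⟨X, Y, eg⟩ : ∃ X Y : M2, cj g = bd X Y := ⟨_, _, bd_of_comm bg⟩
  have eD : (diagonal dZ : M4) = bd (-1) 1 := by decide +kernel
  have hone : (1 : M4) = bd 1 1 := bd_one.symm
  have hMN : M * M = 1 ∧ N * N = 1 := by
    apply bd_inj
    rw [← bd_mul, ← eB, ← cmul, hB, cone, hone]
  have hXM : X * M = M * X ∧ Y * N = N * Y := by
    apply bd_inj
    rw [← bd_mul, ← bd_mul, ← eB, ← eg, ← cmul, ← cmul, hgB]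
  have dMN : M.det * N.det = 1 := by
    rw [← bd_det, ← eB, cdet]
  have dXY : X.det * Y.det = 1 := by
    rw [← bd_det, ← eg, cdet]
  have nbd : ∀ P R : M2, -bd P R = bd (-P) (-R) := by
    intro P R
    ext a b
    fin_cases a <;> fin_cases b <;> simp [bd]
  -- `M` and `N` are not scalar
  have hd : (-1 : F3) ≠ 1 := by decide
  have hMN' : (M ≠ 1 ∧ M ≠ -1 ∧ M.det = -1) ∧ (N ≠ 1 ∧ N ≠ -1 ∧ N.det = -1) := by
    rcases inv_cases hMN.1 with ⟨hM, hMd⟩ | hM <;> rcases inv_cases hMN.2 with ⟨hN, hNd⟩ | hN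
    · exfalso
      rcases hM with rfl | rfl <;> rcases hN with rfl | rfl
      · exact hB1 (by rw [← map_one pr]; exact hprm _ _ (Or.inl (by rw [eB, cone, hone])))
      · exact hAB1 (hprm _ _ (Or.inr (by rw [eB, cA, eD, nbd, neg_neg])))
      · exact hAB1 (hprm _ _ (Or.inl (by rw [eB, cA, eD])))
      · exact hB1 (by rw [← map_one pr]; exact hprm _ _ (Or.inr (by rw [eB, cone, hone, nbd])))
    · exfalso
      rw [hMd, hN.2.2, one_mul] at dMN
      exact hd dMN
    · exfalso
      rw [hNd, hM.2.2, mul_one] at dMN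
      exact hd dMN
    · exact ⟨hM, hN⟩
  obtain ⟨⟨m1', m2', -⟩, ⟨n1', n2', -⟩⟩ := hMN'
  rcases comm_cases hMN.1 m1' m2' hXM.1 with hx | ⟨hx, hX⟩ | ⟨hx, hX⟩
  · rw [hx, zero_mul] at dXY
    exact absurd dXY (by decide)
  · rcases comm_cases hMN.2 n1' n2' hXM.2 with hy | ⟨hy, hY⟩ | ⟨hy, hY⟩
    · rw [hy, mul_zero] at dXY
      exact absurd dXY (by decide)
    · rcases hX with rfl | rfl <;> rcases hY with rfl | rfl
      · left
        rw [← map_one pr]
        exact hprm _ _ (Or.inl (by rw [eg, cone, hone]))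
      · right; left
        exact hprm _ _ (Or.inr (by rw [eg, cA, eD, nbd, neg_neg]))
      · right; left
        exact hprm _ _ (Or.inl (by rw [eg, cA, eD]))
      · left
        rw [← map_one pr]
        exact hprm _ _ (Or.inr (by rw [eg, cone, hone, nbd]))
    · rw [hx, hy, one_mul] at dXY
      exact absurd dXY (by decide)
  · rcases comm_cases hMN.2 n1' n2' hXM.2 with hy | ⟨hy, hY⟩ | ⟨hy, hY⟩
    · rw [hy, mul_zero] at dXY
      exact absurd dXY (by decide)
    · rw [hx, hy, mul_one] at dXY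
      exact absurd dXY (by decide)
    · have cAB : cj (A * B) = bd (-M) N := by
        rw [cmul, cA, eD, eB, bd_mul, neg_mul, one_mul, one_mul]
      rcases hX with rfl | rfl <;> rcases hY with rfl | rfl
      · right; right; left
        exact hprm _ _ (Or.inl (by rw [eg, eB]))
      · right; right; right
        rw [← map_mul]
        exact hprm _ _ (Or.inr (by rw [eg, cAB, nbd, neg_neg]))
      · right; right; right
        rw [← map_mul]
        exact hprm _ _ (Or.inl (by rw [eg, cAB]))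
      · right; right; left
        exact hprm _ _ (Or.inr (by rw [eg, eB, nbd]))

/-! ### the wreath product -/

section Abs

variable {H : Type*} [Group H] {m : H}

theorem comm_of_cube (hm : ∀ x, m * x = x * m) (hmm : m * m = 1) (hm1 : m ≠ 1) {X R : H} (hR : R * R * R = 1)
    (h : X * R = R * X ∨ X * R = m * (R * X)) : X * R = R * X := by
  rcases h with h | h
  · exact h
  · exfalso
    apply hm1
    have h1 : X * R * R * R = m * R * (m * R) * (m * R) * X := by
      have e1 : X * R = m * R * X := by rw [h, mul_assoc]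
      calc X * R * R * R = (m * R * X) * R * R := by rw [e1]
        _ = m * R * (X * R) * R := by group
        _ = m * R * (m * R * X) * R := by rw [e1]
        _ = m * R * (m * R) * (X * R) := by group
        _ = m * R * (m * R) * (m * R * X) := by rw [e1]
        _ = m * R * (m * R) * (m * R) * X := by group
    have h2 : X * R * R * R = X := by
      rw [mul_assoc, mul_assoc, ← mul_assoc R R R, hR, mul_one]
    have h3 : m * R * (m * R) * (m * R) = m := by
      have e2 : R * m = m * R := (hm R).symm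
      calc m * R * (m * R) * (m * R) = m * (R * m) * R * m * R := by group
        _ = m * (m * R) * R * m * R := by rw [e2]
        _ = (m * m) * R * (R * m) * R := by group
        _ = (m * m) * R * (m * R) * R := by rw [e2]
        _ = (m * m) * (R * m) * R * R := by group
        _ = (m * m) * (m * R) * R * R := by rw [e2]
        _ = (m * m) * m * (R * R * R) := by group
        _ = m := by rw [hmm, hR, one_mul, mul_one]
    rw [h2, h3] at h1
    exact mul_eq_right.1 h1.symm

theorem cross (hm : ∀ x, m * x = x * m) (hmm : m * m = 1) (hm1 : m ≠ 1) {X R A B C : H}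
    (hB : B = R * A * R⁻¹) (hC : C = R * B * R⁻¹) (hABC : C = A * B ∨ C = m * (A * B))
    (hX : X * R = R * X) (h : X * A = A * X ∨ X * A = m * (A * X)) : X * A = A * X ∧ X * B = B * X := by
  have hXi : X * R⁻¹ = R⁻¹ * X := by
    rw [mul_inv_eq_iff_eq_mul, mul_assoc, hX, inv_mul_cancel_left]
  rcases h with h | h
  · refine ⟨h, ?_⟩
    rw [hB]
    calc X * (R * A * R⁻¹) = (X * R) * A * R⁻¹ := by group
      _ = R * (X * A) * R⁻¹ := by rw [hX]; group
      _ = R * A * (X * R⁻¹) := by rw [h]; group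
      _ = R * A * R⁻¹ * X := by rw [hXi]; group
  · exfalso
    apply hm1
    have key : ∀ D : H, X * D = m * (D * X) → X * (R * D * R⁻¹) = m * (R * D * R⁻¹ * X) := by
      intro D hD
      calc X * (R * D * R⁻¹) = (X * R) * D * R⁻¹ := by group
        _ = R * (X * D) * R⁻¹ := by rw [hX]; group
        _ = (R * m) * D * (X * R⁻¹) := by rw [hD]; group
        _ = (m * R) * D * (R⁻¹ * X) := by rw [hXi, hm R]
        _ = m * (R * D * R⁻¹ * X) := by group
    have hXB : X * B = m * (B * X) := by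
      rw [hB]
      exact key A h
    have hXC : X * C = m * (C * X) := by
      rw [hC]
      exact key B hXB
    have hXAB : X * (A * B) = A * B * X := by
      calc X * (A * B) = (X * A) * B := by group
        _ = m * A * (X * B) := by rw [h]; group
        _ = m * (A * m) * B * X := by rw [hXB]; group
        _ = m * (m * A) * B * X := by rw [hm A]
        _ = (m * m) * (A * B * X) := by group
        _ = A * B * X := by rw [hmm, one_mul]
    have hXC' : X * C = C * X := by
      rcases hABC with rfl | hc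
      · exact hXAB
      · rw [hc]
        calc X * (m * (A * B)) = (X * m) * (A * B) := by group
          _ = m * (X * (A * B)) := by rw [← hm X]; group
          _ = m * (A * B) * X := by rw [hXAB]; group
    rw [hXC'] at hXC
    exact mul_eq_right.1 hXC.symm

end Abs

open Cfsg.Agent.H465.Wr

def v1 : S4 := Equiv.swap 0 1 * Equiv.swap 2 3
def v2 : S4 := Equiv.swap 0 2 * Equiv.swap 1 3
/-- a `3`-cycle -/
def r : S4 := Equiv.swap 1 2 * Equiv.swap 2 3

theorem s4_facts : (v1 * v1 = 1 ∧ r * r * r = 1) ∧ r * v1 * r⁻¹ = v2 ∧ r * v2 * r⁻¹ = v1 * v2 ∧ v1 ≠ 1 ∧ v2 ≠ 1 ∧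
    v1 ≠ v2 := by
  decide +kernel

theorem no_wr {f : S4 × S4 →* L} {s : L} (h : Wr f s) : False := by
  obtain ⟨⟨hv1, hr3⟩, hrv1, hrv2, hv1n, hv2n, hv12⟩ := s4_facts
  have hm := m1_comm
  have hmm := m1_sq
  have hm1 := m1_ne
  obtain ⟨A, hA⟩ := pr_surj (f (v1, 1))
  obtain ⟨R₀, hR₀⟩ := pr_surj (f (r, 1))
  obtain ⟨S, hS⟩ := pr_surj s
  obtain ⟨R, hR, hR3⟩ : ∃ R, pr R = f (r, 1) ∧ R * R * R = 1 := by
    have h1 : pr (R₀ * R₀ * R₀) = 1 := by
      rw [map_mul, map_mul, hR₀, ← map_mul, ← map_mul]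
      change f (r * r * r, 1 * 1 * 1) = 1
      rw [hr3, mul_one, mul_one]
      exact map_one f
    rcases pr_eq_one_iff.1 h1 with h2 | h2
    · exact ⟨R₀, hR₀, h2⟩
    · refine ⟨m1 * R₀, by rw [map_mul, pr_m1, one_mul, hR₀], ?_⟩
      calc m1 * R₀ * (m1 * R₀) * (m1 * R₀) = m1 * (R₀ * m1) * (R₀ * m1) * R₀ := by group
        _ = m1 * (m1 * R₀) * (m1 * R₀) * R₀ := by rw [hm R₀]
        _ = (m1 * m1) * (R₀ * m1) * (R₀ * R₀) := by group
        _ = (m1 * m1) * (m1 * R₀) * (R₀ * R₀) := by rw [hm R₀]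
        _ = (m1 * m1) * (m1 * (R₀ * R₀ * R₀)) := by group
        _ = 1 := by rw [h2, hmm, one_mul]
  set B := R * A * R⁻¹ with hB
  set C := R * B * R⁻¹ with hC
  set A' := S * A * S⁻¹ with hA'
  set B' := S * B * S⁻¹ with hB'
  have pB : pr B = f (v2, 1) := by
    rw [hB, map_mul, map_mul, map_inv, hR, hA, ← map_inv, ← map_mul, ← map_mul]
    change f (r * v1 * r⁻¹, 1 * 1 * 1⁻¹) = _
    rw [hrv1]
    simp
  have pC : pr C = f (v1 * v2, 1) := by
    rw [hC, map_mul, map_mul, map_inv, hR, pB, ← map_inv, ← map_mul, ← map_mul]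
    change f (r * v2 * r⁻¹, 1 * 1 * 1⁻¹) = _
    rw [hrv2]
    simp
  have scj : ∀ a b, s * f (a, b) * s⁻¹ = f (b, a) := by
    intro a b
    rw [h.sf, mul_inv_cancel_right]
  have pA' : pr A' = f (1, v1) := by
    rw [hA', map_mul, map_mul, map_inv, hS, hA, scj]
  have pB' : pr B' = f (1, v2) := by
    rw [hB', map_mul, map_mul, map_inv, hS, pB, scj]
  have fcomm : ∀ a b : S4, f (1, b) * f (a, 1) = f (a, 1) * f (1, b) := by
    intro a b
    rw [← map_mul, ← map_mul]
    simp
  have alt : ∀ X Y : SL4, pr X * pr Y = pr Y * pr X → X * Y = Y * X ∨ X * Y = m1 * (Y * X) := by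
    intro X Y hXY
    rw [← map_mul, ← map_mul] at hXY
    exact pr_eq_iff.1 hXY
  have hABC : C = A * B ∨ C = m1 * (A * B) := by
    apply pr_eq_iff.1
    rw [pC, map_mul, hA, pB, ← map_mul]
    simp
  have rA' : A' * R = R * A' := comm_of_cube hm hmm hm1 hR3 (alt _ _ (by rw [pA', hR, fcomm]))
  have rB' : B' * R = R * B' := comm_of_cube hm hmm hm1 hR3 (alt _ _ (by rw [pB', hR, fcomm]))
  obtain ⟨cA1, cA2⟩ := cross hm hmm hm1 hB hC hABC rA' (alt _ _ (by rw [pA', hA, fcomm]))
  obtain ⟨cB1, cB2⟩ := cross hm hmm hm1 hB hC hABC rB' (alt _ _ (by rw [pB', hA, fcomm]))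
  have hAA : A * A = 1 ∨ A * A = m1 := by
    apply pr_eq_one_iff.1
    rw [map_mul, hA, ← map_mul]
    change f (v1 * v1, 1 * 1) = 1
    rw [hv1, mul_one]
    exact map_one f
  have cjsq : ∀ {T X Z : SL4}, (∀ x, Z * x = x * Z) → X * X = Z → T * X * T⁻¹ * (T * X * T⁻¹) = Z := by
    intro T X Z hZ hX
    calc T * X * T⁻¹ * (T * X * T⁻¹) = T * (X * X) * T⁻¹ := by group
      _ = Z := by rw [hX, ← hZ T, mul_inv_cancel_right]
  have inj1 : ∀ {x y : S4 × S4}, f x = f y → x = y := fun {x y} e => h.inj e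
  have pAB : pr A * pr B = f (v1 * v2, 1) := by
    rw [hA, pB, ← map_mul]
    simp
  rcases hAA with hAA | hAA
  · -- elementary abelian case
    have hone : ∀ x : SL4, (1 : SL4) * x = x * 1 := fun x => by rw [one_mul, mul_one]
    have hBB : B * B = 1 := cjsq hone hAA
    have hCC : C * C = 1 := cjsq hone hBB
    have hABAB : A * B * (A * B) = 1 := by
      rcases hABC with hc | hc
      · rw [← hc]
        exact hCC
      · rw [hc] at hCC
        calc A * B * (A * B) = (m1 * m1) * (A * B * (A * B)) := by rw [hmm, one_mul]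
          _ = m1 * (m1 * (A * B)) * (A * B) := by group
          _ = m1 * ((A * B) * m1) * (A * B) := by rw [hm (A * B)]
          _ = m1 * (A * B) * (m1 * (A * B)) := by group
          _ = 1 := hCC
    have hAB : A * B = B * A := by
      have h1 : (A * B)⁻¹ = A * B := inv_eq_of_mul_eq_one_left hABAB
      have hAi : A⁻¹ = A := inv_eq_of_mul_eq_one_left hAA
      have hBi : B⁻¹ = B := inv_eq_of_mul_eq_one_left hBB
      rw [← h1, _root_.mul_inv_rev, hAi, hBi]
    have nA : pr A ≠ 1 := by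
      rw [hA]
      intro e
      rw [← map_one f] at e
      exact hv1n (congrArg Prod.fst (inj1 e))
    have nB : pr B ≠ 1 := by
      rw [pB]
      intro e
      rw [← map_one f] at e
      exact hv2n (congrArg Prod.fst (inj1 e))
    have nAB : pr A ≠ pr B := by
      rw [pB, hA]
      intro e
      exact hv12 (congrArg Prod.fst (inj1 e))
    rcases cent_two hAA hBB hAB nA nB nAB cA1 cA2 with e | e | e | e
    · rw [pA', ← map_one f] at e
      exact hv1n (congrArg Prod.snd (inj1 e))
    · rw [pA', hA] at e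
      exact hv1n (congrArg Prod.snd (inj1 e))
    · rw [pA', pB] at e
      exact hv1n (congrArg Prod.snd (inj1 e))
    · rw [pA', pAB] at e
      exact hv1n (congrArg Prod.snd (inj1 e))
  · -- quaternion case
    have hBB : B * B = m1 := cjsq hm hAA
    have hCC : C * C = m1 := cjsq hm hBB
    have hABAB : A * B * (A * B) = m1 := by
      rcases hABC with hc | hc
      · rw [← hc]
        exact hCC
      · rw [hc] at hCC
        calc A * B * (A * B) = (m1 * m1) * (A * B * (A * B)) := by rw [hmm, one_mul]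
          _ = m1 * (m1 * (A * B)) * (A * B) := by group
          _ = m1 * ((A * B) * m1) * (A * B) := by rw [hm (A * B)]
          _ = m1 * (A * B) * (m1 * (A * B)) := by group
          _ = m1 := hCC
    have inv4 : ∀ {X : SL4}, X * X = m1 → X⁻¹ = m1 * X := by
      intro X hX
      apply inv_eq_of_mul_eq_one_left
      rw [mul_assoc, hX, hmm]
    have hAB : A * B = m1 * (B * A) := by
      have h1 := inv4 hABAB
      have h2 : (A * B)⁻¹ = m1 * B * (m1 * A) := by rw [_root_.mul_inv_rev, inv4 hBB, inv4 hAA]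
      have h3 : m1 * B * (m1 * A) = B * A := by
        calc m1 * B * (m1 * A) = m1 * (B * m1) * A := by group
          _ = m1 * (m1 * B) * A := by rw [hm B]
          _ = (m1 * m1) * (B * A) := by group
          _ = B * A := by rw [hmm, one_mul]
      rw [h2, h3] at h1
      calc A * B = (m1 * m1) * (A * B) := by rw [hmm, one_mul]
        _ = m1 * (m1 * (A * B)) := by group
        _ = m1 * (B * A) := by rw [h1]
    have hAA' : A' * A' = m1 := cjsq hm hAA
    have hBB' : B' * B' = m1 := cjsq hm hBB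
    have hAB' : A' * B' = m1 * (B' * A') := by
      calc A' * B' = S * (A * B) * S⁻¹ := by rw [hA', hB']; group
        _ = (S * m1) * (B * A) * S⁻¹ := by rw [hAB]; group
        _ = (m1 * S) * (B * A) * S⁻¹ := by rw [hm S]
        _ = m1 * (B' * A') := by rw [hA', hB']; group
    -- the diagonal subgroup
    have hXX : A * A' * (A * A') = 1 := by
      calc A * A' * (A * A') = A * (A' * A) * A' := by group
        _ = (A * A) * (A' * A') := by rw [cA1]; group
        _ = 1 := by rw [hAA, hAA', hmm]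
    have hYY : B * B' * (B * B') = 1 := by
      calc B * B' * (B * B') = B * (B' * B) * B' := by group
        _ = (B * B) * (B' * B') := by rw [cB2]; group
        _ = 1 := by rw [hBB, hBB', hmm]
    have hXY : A * A' * (B * B') = B * B' * (A * A') := by
      calc A * A' * (B * B') = A * (A' * B) * B' := by group
        _ = (A * B) * (A' * B') := by rw [cA2]; group
        _ = m1 * B * A * m1 * (B' * A') := by rw [hAB, hAB']; group
        _ = m1 * B * (A * m1) * (B' * A') := by group
        _ = m1 * B * (m1 * A) * (B' * A') := by rw [hm A]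
        _ = m1 * (B * m1) * (A * B') * A' := by group
        _ = m1 * (m1 * B) * (B' * A) * A' := by rw [hm B, cB1]
        _ = (m1 * m1) * (B * B' * (A * A')) := by group
        _ = B * B' * (A * A') := by rw [hmm, one_mul]
    have hSS : S * S = 1 ∨ S * S = m1 := by
      apply pr_eq_one_iff.1
      rw [map_mul, hS, h.ss]
    have hSSc : ∀ x, S * S * x = x * (S * S) := by
      intro x
      rcases hSS with e | e
      · rw [e, one_mul, mul_one]
      · rw [e, hm]
    have hSi : ∀ X : SL4, S * (S * X * S⁻¹) * S⁻¹ = X := by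
      intro X
      calc S * (S * X * S⁻¹) * S⁻¹ = (S * S * X) * (S * S)⁻¹ := by group
        _ = X := by rw [hSSc, mul_inv_cancel_right]
    have sX : S * (A * A') = A * A' * S := by
      have e1 : S * A' * S⁻¹ = A := hSi A
      calc S * (A * A') = (S * A * S⁻¹) * (S * A' * S⁻¹) * S := by group
        _ = A' * A * S := by rw [e1]
        _ = A * A' * S := by rw [cA1]
    have sY : S * (B * B') = B * B' * S := by
      have e1 : S * B' * S⁻¹ = B := hSi B
      calc S * (B * B') = (S * B * S⁻¹) * (S * B' * S⁻¹) * S := by group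
        _ = B' * B * S := by rw [e1]
        _ = B * B' * S := by rw [cB2]
    have pX : pr (A * A') = f (v1, v1) := by
      rw [map_mul, hA, pA', ← map_mul]
      simp
    have pY : pr (B * B') = f (v2, v2) := by
      rw [map_mul, pB, pB', ← map_mul]
      simp
    have nX : pr (A * A') ≠ 1 := by
      rw [pX]
      intro e
      rw [← map_one f] at e
      exact hv1n (congrArg Prod.fst (inj1 e))
    have nY : pr (B * B') ≠ 1 := by
      rw [pY]
      intro e
      rw [← map_one f] at e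
      exact hv2n (congrArg Prod.fst (inj1 e))
    have nXY : pr (A * A') ≠ pr (B * B') := by
      rw [pX, pY]
      intro e
      exact hv12 (congrArg Prod.fst (inj1 e))
    rcases cent_two hXX hYY hXY nX nY nXY sX sY with e | e | e | e
    · rw [hS, ← map_one f] at e
      exact h.ns _ e.symm
    · rw [hS, pX] at e
      exact h.ns _ e.symm
    · rw [hS, pY] at e
      exact h.ns _ e.symm
    · rw [hS, pX, pY, ← map_mul] at e
      exact h.ns _ e.symm

end Cfsg.Agent.H465.LFour
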